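import Cfsg.Agent.H6.U62.Rep
import Cfsg.Agent.H6.U62.C1.Main
import Cfsg.Agent.H6.U62.C2.Main
import Cfsg.Agent.H6.U62.C3.Main
import Cfsg.Agent.H6.U62.C4.Main

set_option autoImplicit false
set_option maxRecDepth 100000
set_option Elab.async false

namespace Cfsg.H6.U62

theorem cover : Cover (gen ev Ws) ⊤ 6336 := hX ▸ C1.cover hev hR

theorem ub : UB (⊤ : Subgroup Grp) 9196830720 :=
  (((UB.bot.cover (C4.cover hev hR)).cover (C3.cover hev hR)).cover (C2.cover hev hR)).cover cover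

def I : List Ivl := [(1, 316, [8]), (316, 2556, [8,4,7,8]), (2556, 6336, [8,4,3,5,4,7,8])]

theorem act : ∃ φ : Grp →* Equiv.Perm ℕ, IsAct φ ev img 6336 9 := by
  obtain ⟨ψ, hψ⟩ := lift rep.1 rep.2.1
  exact ⟨_, rep.2.2.comp ψ hψ⟩

/-- The permutation representation. -/
noncomputable def φ : Grp →* Equiv.Perm ℕ := act.choose

theorem hφ : IsAct φ ev img 6336 9 := act.choose_spec

theorem prim : Prim φ ev (gen ev Ws) 6336 I :=
  prim_sound hφ cover (List.forall_mem_cons.mpr ⟨iv0 hφ, (List.forall_mem_cons.mpr ⟨iv1 hφ, (List.forall_mem_cons.mpr ⟨iv2 hφ, (by simp)⟩)⟩)⟩) (by decide +kernel)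

theorem coatom : IsCoatom (gen ev Ws) :=
  prim.isCoatom hφ hX (C := [[], [0], [0,3,0,3,4], [0,4,0,4,7]]) (by decide +kernel)

def lW0 : List (List ℕ) := [[nat_lit 1], [nat_lit 2], [nat_lit 3]]

theorem l0 : lvlChk img 6336 9 [1,0] (6314, lW0, unp 11 (nat_lit 0x18be000018bf010018bc000018b3000018bb020018bb000018ba010018ba000018aa020018aa010018aa00)) = true := by
  decide +kernel

def lW1 : List (List ℕ) := [[nat_lit 6, nat_lit 3], [nat_lit 2, nat_lit 4, nat_lit 3, nat_lit 2, nat_lit 1, nat_lit 6, nat_lit 2, nat_lit 3, nat_lit 4]]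

theorem l1 : lvlChk img 6336 9 [6314,1,0] (6320, lW1, unp 3 (nat_lit 0x18b6000018b0010018b000)) = true := by
  decide +kernel

def lW2 : List (List ℕ) := [[nat_lit 2, nat_lit 1, nat_lit 6, nat_lit 2, nat_lit 3, nat_lit 1], [nat_lit 2, nat_lit 3, nat_lit 2, nat_lit 6, nat_lit 2, nat_lit 1], [nat_lit 2, nat_lit 1, nat_lit 3, nat_lit 7, nat_lit 6, nat_lit 2, nat_lit 1, nat_lit 3, nat_lit 2, nat_lit 4, nat_lit 6, nat_lit 7, nat_lit 3, nat_lit 2, nat_lit 6, nat_lit 1, nat_lit 2, nat_lit 3, nat_lit 4, nat_lit 1]]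

theorem l2 : lvlChk img 6336 9 [6320,6314,1,0] (17, lW2, unp 5 (nat_lit 0xbc0000013602000136000000110200001101)) = true := by
  decide +kernel

def lW3 : List (List ℕ) := [[nat_lit 2, nat_lit 1, nat_lit 6, nat_lit 2, nat_lit 3, nat_lit 1]]

theorem l3 : lvlChk img 6336 9 [17,6320,6314,1,0] (25, lW3, unp 1 (nat_lit 0x1900)) = true := by
  decide +kernel

def lW4 : List (List ℕ) := [[nat_lit 5]]

theorem l4 : lvlChk img 6336 9 [25,17,6320,6314,1,0] (2, lW4, unp 1 (nat_lit 0x200)) = true := by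
  decide +kernel

def lW5 : List (List ℕ) := [[nat_lit 4, nat_lit 3, nat_lit 2, nat_lit 1, nat_lit 5, nat_lit 4, nat_lit 3, nat_lit 2, nat_lit 6, nat_lit 1, nat_lit 2, nat_lit 3, nat_lit 4, nat_lit 5, nat_lit 1, nat_lit 2, nat_lit 3, nat_lit 4]]

theorem l5 : lvlChk img 6336 9 [2,25,17,6320,6314,1,0] (3, lW5, unp 1 (nat_lit 0x300)) = true := by
  decide +kernel

def lW6 : List (List ℕ) := [[nat_lit 2, nat_lit 1, nat_lit 3, nat_lit 2, nat_lit 1, nat_lit 6, nat_lit 2, nat_lit 3, nat_lit 1, nat_lit 2, nat_lit 6, nat_lit 1]]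

theorem l6 : lvlChk img 6336 9 [3,2,25,17,6320,6314,1,0] (6, lW6, unp 1 (nat_lit 0x600)) = true := by
  decide +kernel

theorem finite : Finite Grp := ub.top.1

def bs : List ℕ := [6,3,2,25,17,6320,6314,1,0]

theorem lb : LBn φ ⊤ 6336 bs 9196830720 := by
  have := finite
  exact LBn.cast ((((((((prim.lb2 (e := I.head (by decide)) (List.head_mem _)).stepT hφ l0).stepT hφ l1).stepT hφ l2).stepT hφ l3).stepT hφ l4).stepT hφ l5).stepT hφ l6) (by decide +kernel)

theorem main : Nat.card Grp = 9196830720 ∧ fixS φ bs = ⊥ ∧ Oracle ev img 9 bs := by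
  have := finite
  exact lb.oracle hφ ub.top.2

theorem normal (N : Subgroup Grp) [N.Normal] (hN : N ≠ ⊥) :
    ∀ t ∈ ([[1], [2], [3], [4], [5], [6], [7], [8]] : List (List ℕ)), evL ev t ∈ N := by
  have := finite
  exact prim.normal_contains hev coatom lb.2 main.2.1 main.2.2 (p := 11) (k := 1) (j := 1) (by norm_num)
    main.1 (x := [7,4,3,2,6,8,5,2,1]) (St := [([7,4,3,2,6,8,5,2,1], [], [2], 11, 2), ([2], [], [1], 3, 2), ([2], [], [3], 3, 2), ([3], [], [4], 3, 2), ([4], [], [5], 3, 2), ([2], [], [6], 3, 2), ([6], [], [7], 3, 2), ([7], [], [8], 3, 2)]) (by decide +kernel) N hN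

theorem simple : IsSimpleGroup Grp := by
  have := prim.nontrivial
  exact isSimple_of_contains hX normal

end Cfsg.H6.U62
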