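import Cfsg.Agent.H6.More3
import Cfsg.Agent.H6.U62.Main
import Cfsg.Agent.H6.Fi22.Main
import Cfsg.Agent.H2.UDet

set_option autoImplicit false
set_option maxRecDepth 100000
set_option Elab.async false

namespace Cfsg.H6.U62

open Matrix

abbrev M6 : Type := Matrix (Fin 6) (Fin 6) F4

abbrev SU6 : Type := Cfsg.SU 6 F4 2

theorem card_SU : Nat.card SU6 = 3 * 9196830720 := by
  have hF : Fintype.card F4 = 2 ^ 2 := F4.card
  have hb : H2.stabSub (⊥ : Submodule F4 (Fin 6 → F4)) = ⊤ :=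
    eq_top_iff.mpr fun g _ => H2.mem_stabSub_of_forall (by simp)
  have h1 := H2.card_stab_det hF (n := 6) (by norm_num) H2.FormSp.isTS_bot
  rw [hb, inf_top_eq, inf_top_eq, ← H2.range_toLE_su hF, ← Nat.card_congr (H2.guEquiv hF 6).toEquiv,
    H2.card_GU hF, ← Nat.card_congr
      (MonoidHom.ofInjective (H2.toLE_injective (H2.suToMat_injective 6))).toEquiv,
    show H2.uOrd 2 6 = 3 * (3 * 9196830720) by decide +kernel] at h1
  exact (Nat.eq_of_mul_eq_mul_left (by norm_num) h1).symm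

/-- Squaring. -/
def frob : F4 →+* F4 where
  toFun := fun a => a ^ 2
  map_one' := one_pow 2
  map_mul' := fun a b => mul_pow a b 2
  map_zero' := by decide +kernel
  map_add' := F4.sq_add

def mkSU (A : M6) (h : A.det = 1) (h' : Aᵀ * A.map frob = 1) : SU6 :=
  ⟨⟨A, h⟩, fun u v => by
    show (A *ᵥ u) ⬝ᵥ (frob ∘ (A *ᵥ v)) = u ⬝ᵥ (frob ∘ v)
    have h1 : frob ∘ (A *ᵥ v) = A.map frob *ᵥ (frob ∘ v) := funext fun i => RingHom.map_mulVec frob A v i
    rw [h1, ← vecMul_transpose, ← dotProduct_mulVec, mulVec_mulVec, h', one_mulVec]⟩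

def pos : Fin 6 → ℕ := fun i => i

def rows : List (List ℕ) := [[], [nat_lit 1, nat_lit 2, nat_lit 4, nat_lit 8, nat_lit 16, nat_lit 32, nat_lit 64, nat_lit 128, nat_lit 1024, nat_lit 2048, nat_lit 256, nat_lit 512], [nat_lit 1, nat_lit 2, nat_lit 4, nat_lit 8, nat_lit 16, nat_lit 32, nat_lit 64, nat_lit 128, nat_lit 2048, nat_lit 3072, nat_lit 768, nat_lit 256], [nat_lit 1, nat_lit 2, nat_lit 4, nat_lit 8, nat_lit 1344, nat_lit 2688, nat_lit 1296, nat_lit 2592, nat_lit 1104, nat_lit 2208, nat_lit 336, nat_lit 672], [nat_lit 1, nat_lit 2, nat_lit 4, nat_lit 8, nat_lit 128, nat_lit 192, nat_lit 48, nat_lit 16, nat_lit 256, nat_lit 512, nat_lit 1024, nat_lit 2048], [nat_lit 1, nat_lit 2, nat_lit 4, nat_lit 8, nat_lit 64, nat_lit 128, nat_lit 16, nat_lit 32, nat_lit 256, nat_lit 512, nat_lit 1024, nat_lit 2048], [nat_lit 1284, nat_lit 2568, nat_lit 1281, nat_lit 2562, nat_lit 16, nat_lit 32, nat_lit 64, nat_lit 128, nat_lit 1029, nat_lit 2058, nat_lit 261,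 nat_lit 522], [nat_lit 8, nat_lit 12, nat_lit 3, nat_lit 1, nat_lit 16, nat_lit 32, nat_lit 64, nat_lit 128, nat_lit 256, nat_lit 512, nat_lit 1024, nat_lit 2048], [nat_lit 164, nat_lit 248, nat_lit 161, nat_lit 242, nat_lit 79, nat_lit 133, nat_lit 31, nat_lit 37, nat_lit 256, nat_lit 512, nat_lit 1024, nat_lit 2048], [nat_lit 2, nat_lit 3, nat_lit 8, nat_lit 12, nat_lit 32, nat_lit 48, nat_lit 128, nat_lit 192, nat_lit 512, nat_lit 768, nat_lit 2048, nat_lit 3072]]

noncomputable def rw (x : ℕ) : ℕ → ℕ := nthN (nthW rows x)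

noncomputable def imgM (x p : ℕ) : ℕ := xv (rw x) p (2 * 6)

theorem hact : MAct (fun x => mat4 pos (rw x)) (dec4 pos) imgM 10 :=
  mact4' (by decide +kernel) (by decide +kernel) (by decide +kernel)

theorem hbas : ∀ i, dec4 pos (4 ^ pos i) = Pi.single i 1 := by decide +kernel

theorem hsq : ∀ x < 9, 1 ≤ x → matEq (mat4 pos (rw x) * mat4 pos (rw x)) 1 = true := by
  decide +kernel

theorem hsc : mat4 pos (rw 9) = scalar (Fin 6) (F4.mk 2) := eq_of_matEq (by decide +kernel)

theorem hdet (x : ℕ) (h : 1 ≤ x ∧ x < 10) : (mat4 pos (rw x)).det = 1 := by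
  by_cases h9 : x = 9
  · rw [h9, hsc, scalar_apply, det_diagonal]
    decide +kernel
  · exact det_eq_one_of_sq (eq_of_matEq (hsq x (by omega) h.1))

theorem huni : ∀ x < 10, 1 ≤ x →
    matEq ((mat4 pos (rw x))ᵀ * (mat4 pos (rw x)).map frob) 1 = true := by decide +kernel

noncomputable def evM (x : ℕ) : SU6 :=
  if h : 1 ≤ x ∧ x < 10 then mkSU _ (hdet x h) (eq_of_matEq (huni x h.2 h.1)) else 1

theorem hμ : ∀ x, 1 ≤ x → x < 10 → H2.suToMat 6 F4 2 (evM x) = mat4 pos (rw x) := by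
  intro x h1 h2
  unfold evM
  rw [dif_pos ⟨h1, h2⟩]
  rfl

theorem oraM : Oracle evM imgM 10 [1, 4, 16, 64, 256, 1024] :=
  hact.oracle (H2.suToMat_injective 6) hμ hbas (by decide +kernel)

theorem z_central : evM 9 ∈ Subgroup.center SU6 := by
  rw [Subgroup.mem_center_iff]
  intro g
  apply H2.suToMat_injective 6
  rw [map_mul, map_mul, hμ 9 (by norm_num) (by norm_num), hsc]
  exact (scalar_commute _ (fun _ => Commute.all _ _) _).symm.eq

theorem quot : Good (fun l => QuotientGroup.mk' (Subgroup.center SU6) (evM l)) 148080050112590643456 ∧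
    Rels (fun l => QuotientGroup.mk' (Subgroup.center SU6) (evM l)) R := by
  refine quot_of_chk oraM (Z := [[], [9], [9, 9]]) (m := 9) (fun z hz => evL_mem_of_letters ?_)
    (dif_neg (by omega)) (fun l hl => ?_) (by decide +kernel)
  · have : ∀ x ∈ z, x = 9 := by
      revert z
      decide +kernel
    intro x hx
    rw [this x hx]
    exact z_central
  · by_cases h9 : l = 9
    · rw [h9]; exact z_central
    · rw [evM, dif_neg (by omega)]
      exact Subgroup.one_mem _

theorem finite_SU : Finite SU6 := Nat.finite_of_card_ne_zero (by rw [card_SU]; norm_num)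

theorem iso_psu : Nonempty (Grp ≃* Cfsg.PSU 6 F4 2) := by
  have := simple
  have := finite_SU
  obtain ⟨ψ, hψ⟩ := lift quot.1 quot.2
  have h1 : ψ (ev 1) ≠ 1 := by
    rw [hψ]
    intro h
    have h2 := (QuotientGroup.eq_one_iff _).mp h
    rw [← evL_singleton evM 1] at h2
    exact not_mem_center_of_ne (y := [2]) (hact.ne hμ (p := 256) (i := 4) (by decide +kernel)
      (by decide +kernel) (by decide +kernel)) h2
  refine equiv_of_injective ψ (injective_of_simple ψ h1) ?_
  rw [main.1]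
  have : Fact (Nat.Prime 3) := Nat.fact_prime_three
  refine card_quot_center_le z_central (k := 3) ?_ ?_ card_SU.le
  · rw [← evL_singleton evM 9]
    exact hact.ne hμ (w := []) (p := 1) (i := 0) (by decide +kernel) (by decide +kernel)
      (by decide +kernel)
  · rw [← evL_singleton evM 9, ← evL_rp]
    exact oraM _ (by decide +kernel)

/-- The subgroup of the Fischer group. -/
abbrev H : Subgroup Spor.Fi22 := gen Fi22.ev Fi22.Ws

def s0 : List (List ℕ) := [] :: Fi22.Ws

def X0 : List (List ℕ) := [[1], [2], [3], [4], [5], [6], [7], [8], [9]]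

theorem hs0 : ∀ l, evS Fi22.ev s0 l ∈ H :=
  evS_mem (List.forall_mem_cons.mpr ⟨H.one_mem, fun _ hw => evL_mem_gen _ hw⟩)

/-- The given generators. -/
def ev0 : ℕ → H := evSub (evS Fi22.ev s0) H hs0

theorem hX0 : gen ev0 X0 = ⊤ :=
  gen_evSub hs0 (by rw [gen_evS, show X0.map (subst s0) = Fi22.Ws by decide +kernel])

theorem rels0 {T : List (List ℕ)}
    (h : (T.map (subst s0)).all (fixB Fi22.img 10 Fi22.bs) = true) : Rels ev0 T :=
  (Fi22.main.2.2.rels_evS h).evSub hs0

theorem hev0 : Good ev0 42649378395939397566720 :=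
  (Fi22.main.2.2.good_evS (by decide +kernel)).evSub hs0

theorem a_central : ev0 1 ∈ Subgroup.center H := by
  rw [← evL_singleton ev0 1]
  exact mem_center_of_rels hev0 hX0 (rels0 (by decide +kernel))

theorem a_sq : ev0 1 * ev0 1 = 1 := hev0.mul_self (m := 10) (by decide +kernel) 1

theorem a_ne : ev0 1 ≠ 1 := by
  intro h
  have h1 := congrArg Subtype.val h
  rw [← evL_singleton ev0 1, ev0, coe_evL_evSub, evL_subst] at h1
  exact Fi22.hφ.ne_one (p := 694) (by decide +kernel) h1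

def sg : List (List ℕ) := [[], [3], [4], [5], [6], [7], [8], [9], [2,3,4,8,5,4,3,2,1,2,3,4,5,8,4,3,2], [1]]

theorem hsg : ∀ l, evS Fi22.ev sg l ∈ H := by
  refine evS_mem fun w hw => ?_
  rw [H, Fi22.prim.stab]
  refine Fi22.hφ.mem_fixS (by simp) ?_
  revert w
  decide +kernel

/-- Transpositions in the subgroup. -/
def ev1 : ℕ → H := evSub (evS Fi22.ev sg) H hsg

theorem ev1_nine : ev1 9 = ev0 1 := rfl

theorem cardH : Nat.card H = 9196830720 * 2 := by
  have := Fi22.finite
  exact card_of_index Fi22.prim.index (by norm_num) Fi22.main.1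

theorem result : Cfsg.IsNonsplitDoubleCover H (Cfsg.PSU 6 F4 2) := by
  have := normal_zpowers_of_central a_central
  have := Fi22.finite
  have := finite
  have := simple
  have hq := quot_of_chk (Fi22.main.2.2.sub hsg) (N := Subgroup.zpowers (ev0 1))
    (Z := [[], [9]]) (R := R) (inv := 148080050112590643456) (m := 9)
    (List.forall_mem_cons.mpr ⟨Subgroup.one_mem _, List.forall_mem_cons.mpr
      ⟨by rw [evL_singleton]; exact Subgroup.mem_zpowers _, by simp⟩⟩) rfl (fun l hl => by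
        by_cases h9 : l = 9
        · rw [h9]; exact Subgroup.mem_zpowers _
        · have : evSub (evS Fi22.ev sg) H hsg l = 1 := Subtype.ext (by
            show evL Fi22.ev (sg.getD l []) = 1
            rw [List.getD_eq_default _ _ (by change 10 ≤ l; omega)]
            rfl)
          rw [this]
          exact Subgroup.one_mem _) (by decide +kernel)
  obtain ⟨ψ, hψ⟩ := lift hq.1 hq.2
  have h1 : ψ (ev 1) ≠ 1 := by
    rw [hψ]
    intro h
    have h2 : ev1 1 ∈ Subgroup.center H :=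
      (Subgroup.zpowers_le.mpr a_central) ((QuotientGroup.eq_one_iff _).mp h)
    rw [← evL_singleton ev1 1] at h2
    refine not_mem_center_of_ne (y := [2]) (fun e => ?_) h2
    have h3 : evL ev1 ([1, 2] ++ [1, 2]) = 1 := by
      rw [evL_append]
      nth_rewrite 1 [show evL ev1 [1, 2] = evL ev1 [2, 1] from e]
      rw [← evL_append]
      exact Fi22.main.2.2.sub hsg _ (by decide +kernel)
    have h4 := congrArg Subtype.val h3
    rw [ev1, coe_evL_evSub, evL_subst] at h4
    exact Fi22.hφ.ne_one (p := 1) (by decide +kernel) h4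
  have hc : (Subgroup.zpowers (ev0 1)).index = 9196830720 :=
    index_of_cards (card_zpowers_two a_ne a_sq) cardH
  obtain ⟨e⟩ := equiv_of_injective ψ (injective_of_simple ψ h1) (by rw [main.1]; exact hc.le)
  obtain ⟨e'⟩ := iso_psu
  have := e'.symm.isSimpleGroup
  refine nonsplit_of a_central a_ne a_sq (e.symm.trans e') (center_eq_bot_of_simple _ ?_)
    (no_index_two hX0 (rels0 (T := [[2,3,2,3,2,3], [3,4,3,4,3,4], [3,7,3,7,3,7], [4,5,4,5,4,5], [5,6,5,6,5,6], [5,9,5,9,5,9], [7,8,7,8,7,8], [8,9,8,9,8,9], [4,3,9,1,8,2,7,4,3,9,1,8,2,7,4,3,9,1,8,2,7,4,3,9,1,8,2,7,4,3,9,1,8,2,7], [6,3,5,4,2,8,7,6,3,5,4,2,8,7,6,3,5,4,2,8,7,6,3,5,4,2,8,7,6,3,5,4,2,8,7,6,3,5,4,2,8,7,6,3,5,4,2,8,7,6,3,5,4,2,8,7,6,3,5,4,2,8,7]]) (by decide +kernel)) (C := [[0,3,5,6,8], [1,4,6,9], [0,1,4,6,9], [0,4,6,9], [0,3,4,6,9], [0,3,6,9], [0,1,2,4,6,9], [0,1,2,4,9], [0,3,4,5,6,9]]) (by decide +kernel))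
  rw [← Nat.card_congr e'.toEquiv, main.1]
  norm_num

end Cfsg.H6.U62
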