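import Cfsg.Agent.H6.U62.Tab0

set_option autoImplicit false
set_option maxRecDepth 100000
set_option Elab.async false

namespace Cfsg.H6.U62

theorem p0 : allR (ptU img) 0 704 = true := by decide +kernel

theorem p1 : allR (ptU img) 704 704 = true := by decide +kernel

theorem p2 : allR (ptU img) 1408 704 = true := by decide +kernel

theorem p3 : allR (ptU img) 2112 704 = true := by decide +kernel

theorem p4 : allR (ptU img) 2816 704 = true := by decide +kernel

theorem p5 : allR (ptU img) 3520 704 = true := by decide +kernel

theorem p6 : allR (ptU img) 4224 704 = true := by decide +kernel

theorem p7 : allR (ptU img) 4928 704 = true := by decide +kernel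

end Cfsg.H6.U62
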