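import Cfsg.Agent.H6.U62.Tab0

set_option autoImplicit false
set_option maxRecDepth 100000
set_option Elab.async false

namespace Cfsg.H6.U62

theorem p8 : allR (ptU img) 5632 704 = true := by decide +kernel

theorem q0_0 : allR (ivl img Ws 1 316) 1 315 = true := by decide +kernel

theorem q1_0 : allR (ivl img Ws 316 2556) 316 2240 = true := by decide +kernel

theorem q2_0 : allR (ivl img Ws 2556 6336) 2556 3780 = true := by decide +kernel

end Cfsg.H6.U62
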