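import Cfsg.Agent.H6.U62.Pres
import Cfsg.Agent.H6.U62.Chk0
import Cfsg.Agent.H6.U62.Chk1

set_option autoImplicit false
set_option maxRecDepth 100000
set_option Elab.async false

namespace Cfsg.H6.U62

theorem ptOK : PtOK img 6336 LS EQS := ptOK_of_chk fun p h1 h2 => by
  rw [← ptU_eq]
  exact (range_join (range_join (range_join (allR_range p0 (by norm_num : 0 + 704 = 704)) (allR_range p1 (by norm_num : 704 + 704 = 1408))) (range_join (allR_range p2 (by norm_num : 1408 + 704 = 2112)) (allR_range p3 (by norm_num : 2112 + 704 = 2816)))) (range_join (range_join (allR_range p4 (by norm_num : 2816 + 704 = 3520)) (allR_range p5 (by norm_num : 3520 + 704 = 4224))) (range_join (allR_range p6 (by norm_num : 4224 + 704 = 4928)) (range_join (allR_range p7 (by norm_num : 4928 + 704 = 5632)) (allR_range p8 (by norm_num : 5632 + 704 = 6336)))))) p h1 h2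

theorem hrep : repOK 9 148080050112590643456 LS EQS D U62.R = true := by decide +kernel

theorem rep : Good (evR img 6336 9) 148080050112590643456 ∧ Rels (evR img 6336 9) U62.R ∧
    IsAct (MonoidHom.id _) (evR img 6336 9) img 6336 9 := rep_sound ptOK hrep

theorem iv0 {G : Type*} [Group G] {φ : G →* Equiv.Perm ℕ} {ev : ℕ → G} (h : IsAct φ ev img 6336 9) :
    orb φ (gen ev Ws) 1 = Set.Ico 1 316 :=
  ivl_sound h (by decide +kernel) (allR_range q0_0 (by norm_num : 1 + 315 = 316))

theorem iv1 {G : Type*} [Group G] {φ : G →* Equiv.Perm ℕ} {ev : ℕ → G} (h : IsAct φ ev img 6336 9) :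
    orb φ (gen ev Ws) 316 = Set.Ico 316 2556 :=
  ivl_sound h (by decide +kernel) (allR_range q1_0 (by norm_num : 316 + 2240 = 2556))

theorem iv2 {G : Type*} [Group G] {φ : G →* Equiv.Perm ℕ} {ev : ℕ → G} (h : IsAct φ ev img 6336 9) :
    orb φ (gen ev Ws) 2556 = Set.Ico 2556 6336 :=
  ivl_sound h (by decide +kernel) (allR_range q2_0 (by norm_num : 2556 + 3780 = 6336))


end Cfsg.H6.U62
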